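/-
Fischer's theorem, disconnected case: components of orthogonal type in characteristic three.
-/
import Cfsg.Agent.Lib.Fth.DiscO2
import Cfsg.Agent.Lib.Fi.O3Class

set_option autoImplicit false
set_option linter.unusedSectionVars false
set_option linter.unusedVariables false

namespace CA.Fth

open Cfsg Subgroup CA.Fi CA.TT CA.Tl CA.Orth QuadraticMap

variable {G : Type*} [Group G] {D S T : Set G} {a b g u u' x y z z' : G}

variable {V : Type*} [AddCommGroup V] [Module (ZMod 3) V] [FiniteDimensional (ZMod 3) V]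
  {Q : QuadraticForm (ZMod 3) V} {t : V → G} {J J' : O Q}

section clifford

theorem cliff_step (U : Submodule (ZMod 3) V) (P P' : Module.End (ZMod 3) V) (hP : P * P = 1)
    (hP' : P' * P' = 1 ∨ P' * P' = -1) (ac : P * P' = -(P' * P)) (u1 : ∀ x ∈ U, P x ∈ U)
    (u2 : ∀ x ∈ U, P' x ∈ U) :
    Module.finrank (ZMod 3) U = 2 * Module.finrank (ZMod 3) ↥(U ⊓ LinearMap.ker (P - 1)) := by
  have inj : Function.Injective P' := by
    rw [injective_iff_map_eq_zero]
    intro x hx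
    have : (P' * P') x = 0 := by rw [Module.End.mul_apply, hx, map_zero]
    rcases hP' with e | e <;> simpa [e] using this
  have ac' : ∀ x, P (P' x) = -P' (P x) := fun x => LinearMap.congr_fun ac x
  have sq : ∀ x, P (P x) = x := fun x => LinearMap.congr_fun hP x
  have m1 : ∀ x, x ∈ U ⊓ LinearMap.ker (P - 1) ↔ x ∈ U ∧ P x = x := fun x => by
    simp [sub_eq_zero]
  have m2 : ∀ x, x ∈ U ⊓ LinearMap.ker (P + 1) ↔ x ∈ U ∧ P x = -x := fun x => by
    simp [add_eq_zero_iff_eq_neg]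
  have le : ∀ A B : Submodule (ZMod 3) V, (∀ x ∈ A, P' x ∈ B) →
      Module.finrank (ZMod 3) A ≤ Module.finrank (ZMod 3) B := fun A B h => by
    rw [(Submodule.equivMapOfInjective P' inj A).finrank_eq]
    exact Submodule.finrank_mono (by rintro _ ⟨x, hx, rfl⟩; exact h x hx)
  have h1 := le _ _ fun x hx => (m2 _).2 ⟨u2 x ((m1 x).1 hx).1, by rw [ac', ((m1 x).1 hx).2]⟩
  have h2 := le _ _ fun x hx => (m1 _).2 ⟨u2 x ((m2 x).1 hx).1, by
    rw [ac', ((m2 x).1 hx).2, map_neg, neg_neg]⟩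
  have h3 := Submodule.finrank_sup_add_finrank_inf_eq (U ⊓ LinearMap.ker (P - 1))
    (U ⊓ LinearMap.ker (P + 1))
  have h4 : U ⊓ LinearMap.ker (P - 1) ⊔ U ⊓ LinearMap.ker (P + 1) = U := by
    refine le_antisymm (sup_le inf_le_left inf_le_left) fun x hx => ?_
    rw [show x = -(x + P x) + -(x - P x) by linear_combination (norm := abel) v_add_add x]
    refine Submodule.add_mem_sup ((m1 _).2 ⟨neg_mem (add_mem hx (u1 x hx)), ?_⟩)
      ((m2 _).2 ⟨neg_mem (sub_mem hx (u1 x hx)), ?_⟩)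
    · rw [map_neg, map_add, sq, add_comm]
    · rw [map_neg, map_sub, sq, neg_neg, neg_sub]
  have h5 : (U ⊓ LinearMap.ker (P - 1)) ⊓ (U ⊓ LinearMap.ker (P + 1)) = ⊥ := by
    rw [eq_bot_iff]
    intro x hx
    have := ((m1 x).1 hx.1).2.symm.trans ((m2 x).1 hx.2).2
    rw [Submodule.mem_bot]
    linear_combination (norm := abel) v_add_add x - this
  rw [h4, h5, finrank_bot] at h3
  omega

theorem cliff (k : ℕ) : ∀ (U : Submodule (ZMod 3) V) (C : ℕ → Module.End (ZMod 3) V),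
    (∀ i < 2 * k, C i * C i = 1 ∨ C i * C i = -1) →
    (∀ i < 2 * k, ∀ j < 2 * k, i ≠ j → C i * C j = -(C j * C i)) →
    (∀ i < 2 * k, ∀ x ∈ U, C i x ∈ U) → 2 ^ k ∣ Module.finrank (ZMod 3) U := by
  induction k with
  | zero => simp
  | succ k ih =>
    intro U C h1 h2 h3
    have three : (1 + 1 + 1 : Module.End (ZMod 3) V) = 0 := LinearMap.ext fun x => v_add_add x
    obtain ⟨P, P', hP, hP', ac, u1, u2, c⟩ : ∃ P P' : Module.End (ZMod 3) V, P * P = 1 ∧
        (P' * P' = 1 ∨ P' * P' = -1) ∧ P * P' = -(P' * P) ∧ (∀ x ∈ U, P x ∈ U) ∧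
        (∀ x ∈ U, P' x ∈ U) ∧ ∀ i < 2 * k, P * C (i + 2) = -(C (i + 2) * P) ∧
          P' * C (i + 2) = -(C (i + 2) * P') := by
      have a0 := fun i (hi : i < 2 * k) => h2 0 (by omega) (i + 2) (by omega) (by omega)
      have a1 := fun i (hi : i < 2 * k) => h2 1 (by omega) (i + 2) (by omega) (by omega)
      have a2 := h2 0 (by omega) 1 (by omega) (by omega)
      rcases h1 0 (by omega) with e0 | e0
      · exact ⟨C 0, C 1, e0, h1 1 (by omega), a2, h3 0 (by omega), h3 1 (by omega),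
          fun i hi => ⟨a0 i hi, a1 i hi⟩⟩
      rcases h1 1 (by omega) with e1 | e1
      · exact ⟨C 1, C 0, e1, h1 0 (by omega), h2 1 (by omega) 0 (by omega) (by omega),
          h3 1 (by omega), h3 0 (by omega), fun i hi => ⟨a1 i hi, a0 i hi⟩⟩
      refine ⟨C 0 + C 1, C 0 - C 1, ?_, Or.inl ?_, ?_,
        fun x hx => add_mem (h3 0 (by omega) x hx) (h3 1 (by omega) x hx),
        fun x hx => sub_mem (h3 0 (by omega) x hx) (h3 1 (by omega) x hx), fun i hi => ⟨?_, ?_⟩⟩
      · linear_combination (norm := noncomm_ring) e0 + e1 + a2 - three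
      · linear_combination (norm := noncomm_ring) e0 + e1 - a2 - three
      · linear_combination (norm := noncomm_ring) e0 + e0 - e1 - e1
      · linear_combination (norm := noncomm_ring) a0 i hi + a1 i hi
      · linear_combination (norm := noncomm_ring) a0 i hi - a1 i hi
    rw [cliff_step U P P' hP hP' ac u1 u2, pow_succ']
    refine Nat.mul_dvd_mul_left 2 (ih _ (fun i => P' * C (i + 2)) (fun i hi => ?_)
      (fun i hi j hj e => ?_) fun i hi x hx => ⟨u2 _ (h3 _ (by omega) x hx.1), ?_⟩)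
    · have : P' * C (i + 2) * (P' * C (i + 2)) = -(P' * P' * (C (i + 2) * C (i + 2))) := by
        linear_combination (norm := noncomm_ring) P' * (c i hi).2 * C (i + 2)
      rcases hP' with e | e <;> rcases h1 (i + 2) (by omega) with e' | e' <;>
        simp [this, e, e']
    · linear_combination (norm := noncomm_ring) P' * (c i hi).2 * C (j + 2) +
        P' * (c j hj).2 * C (i + 2) - P' * P' * h2 (i + 2) (by omega) (j + 2) (by omega) (by omega)
    · have e : P * (P' * C (i + 2)) = P' * C (i + 2) * P := by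
        linear_combination (norm := noncomm_ring) ac * C (i + 2) - P' * (c i hi).1
      have hx2 : P x = x := by simpa [sub_eq_zero] using hx.2
      have := LinearMap.congr_fun e x
      simp only [Module.End.mul_apply, hx2] at this
      simp [this]

end clifford

variable (Q) in
/-- an orthonormal family -/
structure ON {ι : Type*} (w : ι → V) : Prop where
  one : ∀ i, Q (w i) = 1
  orth : ∀ i j, i ≠ j → polar Q (w i) (w j) = 0

theorem ON.fam {ι : Type*} {w : ι → V} (h : ON Q w) : OrthFam Q w :=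
  ⟨fun i => h.one i ▸ one_ne_zero, h.orth⟩

theorem ON.exists_perp {ι : Type*} [Fintype ι] {w : ι → V} (h : ON Q w) (hQ : ND Q)
    (hn : Fintype.card ι < Module.finrank (ZMod 3) V) :
    ∃ x, Q x ≠ 0 ∧ ∀ i, polar Q (w i) x = 0 := by
  classical
  obtain ⟨p, p0, hp⟩ := exists_orth_of_finrank (Q := Q) (w ∘ (Fintype.equivFin ι).symm) hn
  replace hp : ∀ i, polar Q (w i) p = 0 := fun i => by simpa using hp (Fintype.equivFin ι i)
  obtain ⟨y, hy⟩ := hQ.exists_B_eq_one p0
  set y' := y + ∑ i, polar Q (w i) y • w i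
  have h1 : ∀ i, polar Q (w i) y' = 0 := fun i => by
    rw [polar_add_right, polar_sum_right, Finset.sum_eq_single i
      (fun j _ e => by rw [B_smul_right, h.orth i j e.symm, mul_zero]) (by simp), B_smul_right,
      B_self, h.one]
    linear_combination polar Q (w i) y * three_eq_zero
  have h2 : polar Q p y' = 1 := by
    rw [polar_add_right, polar_sum_right, hy, Finset.sum_eq_zero
      fun j _ => by rw [B_smul_right, Bs (hp j), mul_zero], add_zero]
  by_cases e1 : Q p = 0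
  swap; · exact ⟨p, e1, hp⟩
  by_cases e2 : Q y' = 0
  swap; · exact ⟨y', e2, h1⟩
  exact ⟨p + y', by rw [Q_add, e1, e2, h2]; simp, fun i => by
    rw [polar_add_right, hp, h1, add_zero]⟩

theorem ON.cons {k : ℕ} {w : Fin k → V} (h : ON Q w) {x : V} (hx : Q x = 1)
    (o : ∀ i, polar Q (w i) x = 0) : ON Q (Fin.cons x w : Fin (k + 1) → V) :=
  ⟨fun i => by induction i using Fin.cases <;> simp [hx, h.one], fun i j e => by
    induction i using Fin.cases <;> induction j using Fin.cases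
    · exact absurd rfl e
    · exact Bs (o _)
    · exact o _
    · exact h.orth _ _ fun e' => e (congrArg Fin.succ e')⟩

theorem skew_B (hJ : ∀ x, J.1 (J.1 x) = -x) (x y : V) :
    polar Q (J.1 x) y = -polar Q x (J.1 y) := by
  rw [← O.map_B J, hJ, polar_neg_left]

theorem skew_self (hJ : ∀ x, J.1 (J.1 x) = -x) (x : V) : polar Q x (J.1 x) = 0 := by
  have := skew_B hJ x x
  rw [B_comm] at this
  linear_combination -this + polar Q x (J.1 x) * three_eq_zero

variable (J) in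
/-- an orthonormal family adapted to a complex structure -/
structure Ad {m : ℕ} (v : Fin m → V) : Prop where
  on : ON Q v
  sk : ∀ i j, polar Q (v i) (J.1 (v j)) = 0

theorem Ad.on' {m : ℕ} {v : Fin m → V} (h : Ad J v) : ON Q (Sum.elim v fun i => J.1 (v i)) :=
  ⟨by rintro (i | i) <;> simp [O.map_Q, h.on.one], by
    rintro (i | i) (j | j) e
    · exact h.on.orth i j (by simpa using e)
    · exact h.sk i j
    · exact Bs (h.sk j i)
    · exact (O.map_B _ _ _).trans (h.on.orth i j (by simpa using e))⟩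

theorem exists_ad_aux (hQ : ND Q) (hJ : ∀ x, J.1 (J.1 x) = -x) (m : ℕ)
    (hm : 2 * m ≤ Module.finrank (ZMod 3) V + 1) : ∃ v : Fin m → V, Ad J v := by
  induction m with
  | zero => exact ⟨![], ⟨fun i => i.elim0, fun i => i.elim0⟩, fun i => i.elim0⟩
  | succ m ih =>
    obtain ⟨v, hv⟩ := ih (by omega)
    obtain ⟨x, x0, hx⟩ := hv.on'.exists_perp hQ (by simp; omega)
    have o1 : ∀ i, polar Q (v i) x = 0 := fun i => hx (.inl i)
    have o2 : ∀ i, polar Q (J.1 (v i)) x = 0 := fun i => hx (.inr i)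
    obtain ⟨x, x1, o1, o2⟩ : ∃ x, Q x = 1 ∧ (∀ i, polar Q (v i) x = 0) ∧
        ∀ i, polar Q (J.1 (v i)) x = 0 := by
      rcases three_cases x0 with e | e
      · exact ⟨x, e, o1, o2⟩
      · refine ⟨x + J.1 x, by rw [Q_add, O.map_Q, e, skew_self hJ]; decide, fun i => ?_, fun i => ?_⟩
        · rw [polar_add_right, o1, ← neg_neg (polar Q _ (J.1 x)), ← skew_B hJ, o2]; simp
        · rw [polar_add_right, o2, O.map_B, o1, add_zero]
    refine ⟨Fin.cons x v, hv.on.cons x1 o1, fun i j => ?_⟩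
    induction i using Fin.cases <;> induction j using Fin.cases
    · exact skew_self hJ x
    · exact Bs (o2 _)
    · rw [Fin.cons_succ, Fin.cons_zero, ← neg_eq_zero, ← skew_B hJ, o2]
    · exact hv.sk _ _

theorem exists_ad (hQ : ND Q) (hJ : ∀ x, J.1 (J.1 x) = -x) :
    ∃ m, Module.finrank (ZMod 3) V = m + m ∧ ∃ v : Fin m → V, Ad J v := by
  obtain ⟨v, hv⟩ := exists_ad_aux hQ hJ ((Module.finrank (ZMod 3) V + 1) / 2) (by omega)
  have := (hv.on'.fam.linearIndependent two_ne_zero_three).fintype_card_le_finrank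
  simp at this
  exact ⟨_, by omega, v, hv⟩

theorem skew_conj (hQ : ND Q) (hJ : ∀ x, J.1 (J.1 x) = -x) (hJ' : ∀ x, J'.1 (J'.1 x) = -x) :
    ∃ g : O Q, g * J = J' * g := by
  obtain ⟨m, hm, v, hv⟩ := exists_ad hQ hJ
  obtain ⟨m', hm', v', hv'⟩ := exists_ad hQ hJ'
  obtain rfl : m = m' := by omega
  obtain ⟨b, hb⟩ := hv.on'.fam.exists_basis two_ne_zero_three (by simp [hm])
  obtain ⟨b', hb'⟩ := hv'.on'.fam.exists_basis two_ne_zero_three (by simp [hm])
  set φ := b.equiv b' (Equiv.refl _)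
  have e : ∀ i, φ (b i) = b' i := fun i => by simp [φ]
  refine ⟨⟨φ, fun x => ?_⟩, O.ext fun x => ?_⟩
  · rw [← b.sum_repr x, map_sum]
    simp only [map_smul, e]
    simp only [hb, hb']
    rw [hv.on'.fam.Q_sum, hv'.on'.fam.Q_sum]
    simp only [hv.on'.one, hv'.on'.one]
  · refine LinearMap.congr_fun (b.ext (f₁ := (φ : V →ₗ[ZMod 3] V) ∘ₗ (J.1 : V →ₗ[ZMod 3] V))
      (f₂ := (J'.1 : V →ₗ[ZMod 3] V) ∘ₗ (φ : V →ₗ[ZMod 3] V)) ?_) x
    have e1 : ∀ i, φ (v i) = v' i := fun i => by simpa [hb, hb'] using e (.inl i)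
    have e2 : ∀ i, φ (J.1 (v i)) = J'.1 (v' i) := fun i => by simpa [hb, hb'] using e (.inr i)
    rintro (i | i) <;> simp [hb, e1, e2, hJ, hJ']

theorem refl_not_mem_RN (hQ : ND Q) (hn : 5 ≤ Module.finrank (ZMod 3) V) {p : V} (hp : Q p = -1) :
    refl Q p ∉ RN Q 1 := fun h => by
  obtain ⟨e, f, e', f', H⟩ := exists_hyp2_three hQ hn
  have hE := E_le_RN hQ hn (one_ne_zero (α := ZMod 3))
  have := index_RN hQ hn (one_ne_zero (α := ZMod 3))
  rw [H.h1.eq_top hQ.ns hE fun a ha => ?_] at this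
  · simp at this
  rcases three_cases ha with rfl | rfl
  · exact refl_mem_RN (H.h1.Q_plane' 1)
  · obtain ⟨k, hk, e⟩ := H.h1.refl_conj_refl hQ (u := p) (by rw [hp]; decide)
      (hp.trans (H.h1.Q_plane' (-1)).symm)
    exact e ▸ mul_mem (mul_mem (hE hk) h) (inv_mem (hE hk))

theorem skew_conj_RN (hQ : ND Q) (hn : 5 ≤ Module.finrank (ZMod 3) V)
    (hJ : ∀ x, J.1 (J.1 x) = -x) (hJ' : ∀ x, J'.1 (J'.1 x) = -x) :
    ∃ g ∈ RN Q 1, g * J = J' * g := by
  obtain ⟨g, hg⟩ := skew_conj hQ hJ hJ'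
  by_cases h : g ∈ RN Q 1
  · exact ⟨g, h, hg⟩
  obtain ⟨v, hv⟩ := exists_norm hQ hn (one_ne_zero (α := ZMod 3))
  have hp : Q (v + J.1 v) = -1 := by rw [Q_add, O.map_Q, hv, skew_self hJ]; decide
  have i2 := index_RN hQ hn (one_ne_zero (α := ZMod 3))
  refine ⟨g * (refl Q v * refl Q (v + J.1 v)), (mul_mem_iff_of_index_two i2).2
    (iff_of_false h fun e => refl_not_mem_RN hQ hn hp
      ((mul_mem_cancel_left (refl_mem_RN hv)).1 e)), ?_⟩
  rw [← mul_assoc J', ← hg, mul_assoc g, mul_assoc g]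
  congr 1
  have key : ∀ x, (refl Q v * refl Q (v + J.1 v)).1 x = x + (polar Q x v - polar Q x (J.1 v)) • v +
      (polar Q x v + polar Q x (J.1 v)) • J.1 v := fun x => by
    rw [O.mul_apply, refl_apply, refl_apply, hv, hp, div_one, div_neg, div_one]
    qsimp
    rw [hv, Bs (skew_self hJ v)]
    m3
  refine O.ext fun x => ?_
  rw [O.mul_apply _ J, O.mul_apply J, key, key, O.map_B, skew_B hJ]
  simp only [map_add, map_smul, hJ]
  module

theorem OM.rm (k : OM S Q t) (hS : Closed S) : RM S Q t :=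
  ⟨hS, k.mem, k.surj, fun v w hv hw => by rw [k.conj v w hv hw, refl_apply, hv, div_one]⟩

theorem OM.lf (k : OM S Q t) :
    OM (Subtype.val ⁻¹' S : Set (closure S)) Q fun v => lf S (t v) := by
  refine ⟨k.nd, fun v hv => ?_, fun x hx => ?_, fun v w hv hw => ?_, fun v w hv hw => ?_⟩
  · rw [Set.mem_preimage, lf_val (k.mem v hv)]; exact k.mem v hv
  · obtain ⟨v, hv, e⟩ := k.surj x hx
    exact ⟨v, hv, Subtype.ext (by rw [lf_val (k.mem v hv), e])⟩
  · rw [Subtype.ext_iff, lf_val (k.mem v hv), lf_val (k.mem w hw), k.eq_iff v w hv hw]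
  · refine Subtype.ext ?_
    simp only [coe_mul]
    rw [lf_val (k.mem v hv), lf_val (k.mem w hw), lf_val (k.mem _ ((Q_rf hv w).trans hw)),
      k.conj v w hv hw]

theorem OM.cj (k : OM S Q t) (hg : ∀ x, x ∈ T ↔ g * x * g⁻¹ ∈ S) :
    OM T Q fun v => g⁻¹ * t v * g := by
  refine ⟨k.nd, fun v hv => ?_, fun x hx => ?_, fun v w hv hw => ?_, fun v w hv hw => ?_⟩
  · rw [hg]; simpa [mul_assoc] using k.mem v hv
  · obtain ⟨v, hv, e⟩ := k.surj _ ((hg x).1 hx)
    exact ⟨v, hv, by rw [e]; group⟩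
  · rw [← k.eq_iff v w hv hw]; simp
  · rw [← k.conj v w hv hw]; group

theorem OM.iso_PR (h : Prim D) (k : OM D Q t) (hn : 5 ≤ Module.finrank (ZMod 3) V) :
    Nonempty (G ≃* PR Q 1) := by
  have e0 : Set.range (fun p : {v // Q v = 1} => rf Q 1 p.1) = rfSet Q 1 :=
    Set.ext fun x => ⟨by rintro ⟨p, rfl⟩; exact ⟨_, p.2, rfl⟩,
      by rintro ⟨v, hv, rfl⟩; exact ⟨⟨v, hv⟩, rfl⟩⟩
  obtain ⟨e, -⟩ := h.ident (P := {v // Q v = 1}) (fun p => t p.1) (fun p => rf Q 1 p.1)
    (Set.ext fun x => ⟨by rintro ⟨p, rfl⟩; exact k.mem _ p.2, fun hx => by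
      obtain ⟨v, hv, rfl⟩ := k.surj x hx; exact ⟨⟨v, hv⟩, rfl⟩⟩)
    (center_PR k.nd hn one_ne_zero) (by rw [e0]; exact closure_rfSet 1)
    (fun p => rf_mul_self p.2)
    (fun p q => (k.eq_iff _ _ p.2 q.2).trans (rf_eq_iff k.nd hn one_ne_zero p.2 q.2).symm)
    fun p q => ⟨⟨_, Q_conj p.2 q.2⟩, by simp only [one_mul]; exact k.conj _ _ p.2 q.2,
      rf_conj p.2 q.2⟩
  exact ⟨e⟩

theorem OM.skJ (k : OM S Q t) (hS : Closed S) (hn : 5 ≤ Module.finrank (ZMod 3) V)
    (hu : Skew S u) (hJ : Acts Q t u J) (x : V) : J.1 (J.1 x) = -x := by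
  obtain ⟨s, s0, hs⟩ := scalar_of_fix k.nd hn one_ne_zero (J * J) fun v hv => by
    have := hJ.mul hJ v hv
    rw [hu.sq, one_mul, inv_one, mul_one] at this
    exact (k.eq_iff _ _ hv ((O.map_Q _ _).trans hv)).1 this
  rcases three_cases s0 with rfl | rfl
  swap; · simpa using hs x
  exfalso
  simp only [O.mul_apply, one_smul] at hs
  have o : ∀ v, Q v = 1 → polar Q v (J.1 v) = 0 := fun v hv => by
    have := (hu.dd _ (k.mem v hv)).2
    rw [← hu.conj_eq, hJ v hv] at this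
    exact (k.dd_iff hS hv ((O.map_Q _ _).trans hv)).1 this
  obtain ⟨v, hv⟩ := exists_norm k.nd hn (one_ne_zero (α := ZMod 3))
  have n1 : ON Q (Fin.cons v ![] : Fin 1 → V) :=
    ON.cons ⟨fun i => i.elim0, fun i => i.elim0⟩ hv fun i => i.elim0
  have n2 := n1.cons ((O.map_Q J _).trans hv) fun i => by fin_cases i; exact o v hv
  obtain ⟨w, hw, o1, o2⟩ : ∃ w, Q w = 1 ∧ polar Q v w = 0 ∧ polar Q (J.1 v) w = 0 := by
    obtain ⟨x, x0, hx⟩ := n2.exists_perp k.nd (by simp; omega)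
    rcases three_cases x0 with e | e
    · exact ⟨x, e, hx 1, hx 0⟩
    obtain ⟨y, y0, hy⟩ := exists_sing_orth_three (Q := Q) ![v, J.1 v] (by omega)
    obtain ⟨f, q, f1, f2, f3⟩ := nsep2 k.nd (a := v) (b := J.1 v) (s := y) (fun α β e => by
      have h1 := hy.2 0
      have h2 := hy.2 1
      simp only [Matrix.cons_val_zero, Matrix.cons_val_one] at h1 h2
      rw [e] at h1 h2 y0
      revert h1 h2
      qsimp
      rw [o v hv, Bs (o v hv), O.map_Q, hv]
      intro h1 h2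
      obtain rfl : α = 0 := by grind
      obtain rfl : β = 0 := by grind
      simp at y0) hy.1 (hy.2 0) (hy.2 1) 1
    exact ⟨f, q, f1, f2⟩
  have q : Q (v + J.1 v + (w + J.1 w)) = 1 := by
    have o3 : polar Q v (J.1 w) = 0 := by rw [← O.map_B J, hs, o2]
    qsimp
    rw [O.map_Q, O.map_Q, O.map_B, hv, hw, o v hv, o w hw, o1, o2, o3]
    decide
  have := o _ q
  rw [show J.1 (v + J.1 v + (w + J.1 w)) = v + J.1 v + (w + J.1 w) by
    simp only [map_add, hs]; abel, B_self, q] at this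
  exact absurd this (by decide)

theorem Cross.o3 (h : Cross D S T) {n : ℕ} (hn : 5 ≤ n) (k : IsO3 S n) :
    Nonempty (commutator ↥(closure S) ≃*
      Cfsg.POmega (ZMod 3) (Cfsg.quadFormPlus 4 (ZMod 3))) ∧
    ∀ u u', Skew S u → Skew S u' → ∃ g ∈ closure S, g * u * g⁻¹ = u' := by
  obtain ⟨Q, t, k⟩ := k
  have hS := h.rS.cl
  have hT := h.rT.cl
  have h5 : 5 ≤ Module.finrank (ZMod 3) (Fin n → ZMod 3) := by simpa using hn
  refine ⟨?_, fun u u' hu hu' => ?_⟩
  · obtain ⟨u, hu⟩ := h.exists_skew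
    obtain ⟨J, -, hJ⟩ := (k.rm hS).act hu.mem
    obtain ⟨m, hm, v, hv⟩ := exists_ad k.nd (k.skJ hS h5 hu hJ)
    set w : Fin (m + m) → _ := (Sum.elim v fun i => J.1 (v i)) ∘ finSumFinEquiv.symm
    have hw : ON Q w := ⟨fun i => hv.on'.one _, fun i j e =>
      hv.on'.orth _ _ (finSumFinEquiv.symm.injective.ne e)⟩
    obtain ⟨g, hg⟩ := h.conj
    have k' := k.cj hg
    set t' := fun v => g⁻¹ * t v * g
    have sk : ∀ i j, i ≠ j → Skew S (t' (w i) * t' (w j)) := fun i j e =>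
      h.skew (k'.mem _ (hw.one i))
        ⟨k'.mem _ (hw.one j), (k'.dd_iff hT (hw.one i) (hw.one j)).2 (hw.orth i j e)⟩
    have m0 : 0 < m + m := by omega
    have ex : ∀ i : ℕ, ∃ A : O Q, ∀ hi : i + 1 < m + m,
        Acts Q t (t' (w ⟨0, m0⟩) * t' (w ⟨i + 1, hi⟩)) A := fun i => by
      by_cases hi : i + 1 < m + m
      · obtain ⟨A, -, hA⟩ := (k.rm hS).act (sk ⟨0, m0⟩ ⟨i + 1, hi⟩ (by simp)).mem
        exact ⟨A, fun _ => hA⟩
      · exact ⟨1, fun e => absurd e hi⟩
    choose A hA using ex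
    have sq : ∀ i, i + 1 < m + m → ∀ x, (A i).1 ((A i).1 x) = -x := fun i hi =>
      k.skJ hS h5 (sk _ _ (by simp)) (hA i hi)
    have dv := cliff (m - 1) ⊤ (fun i => ((A i).1 : Module.End (ZMod 3) (Fin n → ZMod 3)))
      (fun i hi => Or.inr (LinearMap.ext (sq i (by omega))))
      (fun i hi j hj e => LinearMap.ext fun x => by
        have hi' : i + 1 < m + m := by omega
        have hj' : j + 1 < m + m := by omega
        have a := (hA i hi').mul (hA j hj')
        have c := ((k'.dd_iff hT (hw.one ⟨0, m0⟩) (hw.one ⟨i + 1, hi'⟩)).2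
          (hw.orth _ _ (by simp))).2
        rw [c.eq, mul_assoc, hT.cancel (k'.mem _ (hw.one _))] at a
        have := k.skJ hS h5 (sk _ _ (by simpa using e)) a ((A j).1 ((A i).1 x))
        simp only [O.mul_apply, sq j hj', map_neg, sq i hi', neg_neg] at this
        exact this)
      fun _ _ _ _ => trivial
    rw [finrank_top, hm] at dv
    obtain rfl : m = 4 := by
      by_contra hc
      by_cases h3 : m = 3
      · subst h3; norm_num at dv
      obtain ⟨r, rfl⟩ : ∃ r, m = r + 5 := ⟨m - 5, by omega⟩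
      have h1 := Nat.le_of_dvd m0 dv
      have h2 := r.lt_two_pow_self
      rw [show r + 5 - 1 = r + 4 from rfl, pow_add] at h1
      omega
    obtain ⟨φ, hφ⟩ := hw.fam.exists_sim_sq3 hm.symm one_ne_zero (by simp [hw.one])
    obtain ⟨e, -⟩ := exists_simPR φ one_ne_zero hφ (c := 1) (c' := 1) (by simp)
    obtain ⟨e1⟩ := k.lf.iso_PR h.pS h5
    obtain ⟨e2⟩ := nonempty_commutator_PR8
    exact ⟨(Cl.commutatorCongr (e1.trans e.symm)).trans e2⟩
  · obtain ⟨J, -, hJ⟩ := (k.rm hS).act hu.mem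
    obtain ⟨J', -, hJ'⟩ := (k.rm hS).act hu'.mem
    obtain ⟨g, h0, hg⟩ := skew_conj_RN k.nd h5 (k.skJ hS h5 hu hJ) (k.skJ hS h5 hu' hJ')
    obtain ⟨γ, h1, h2⟩ := (k.rm hS).lift h0
    refine ⟨γ, h1, (k.rm hS).eq_of_acts h.fS ((h2.mul hJ).mul h2.inv) hJ' fun v hv => ?_⟩
    rw [hg, mul_inv_cancel_right]

end CA.Fth
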